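import Mathlib
import Cfsg.Prelude.Def_OddOrderLocal
import Cfsg.Statements.S1350
import Cfsg.Statements.S1404
import Cfsg.Statements.S1405
import Cfsg.Statements.S1417
import Cfsg.Statements.S1420
import Cfsg.Statements.S1424
import Cfsg.Statements.S1430
import Cfsg.Agent.Lib.Helper46.Amalgam

/-!
# S1431 (Bender–Glauberman Theorem 14.2 (d)–(g)): package statements

Team project led by helper24.  Each `Lem…` below is the exact statement of one package; a package
is a theorem `… : Cfsg.Agent.Lib.Helper24.BG31.Lem….{u}` proved in the taker's own Lib file.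
`IsSylowIn p S H` (from `Helper46.Amalgam`) means `S ≤ H ∧ Nat.card S = p ^ (Nat.card H).factorization p`.
-/

set_option autoImplicit false

namespace Cfsg.Agent.Lib.Helper24.BG31

open Cfsg Cfsg.Agent.Lib.Helper46

universe u

/-- Package A1.  `S` an abelian Sylow `p`-subgroup (`p` odd) of rank at most 2 of a solvable group
`N` of odd order normalizing it: the derived subgroup of `N` centralizes `S`. -/
def LemRankTwo : Prop :=
  ∀ {G : Type u} [Group G] [Finite G] {p : ℕ} [Fact p.Prime], p ≠ 2 →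
    ∀ (S N : Subgroup G), IsSylowIn p S N → N ≤ Subgroup.normalizer (S : Set G) →
      Group.IsSolvable N → Odd (Nat.card N) → IsMulCommutative S → Cfsg.PRankLE p 2 S →
      ⁅N, N⁆ ≤ Subgroup.centralizer (S : Set G)

/-- Package A2 (transfer).  `S` an abelian Sylow `p`-subgroup of `N` contained in the derived
subgroup of `N`: no non-identity element of `S` is central in `N`. -/
def LemTransfer : Prop :=
  ∀ {G : Type u} [Group G] [Finite G] {p : ℕ} [Fact p.Prime] (S N : Subgroup G),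
    IsSylowIn p S N → IsMulCommutative S → S ≤ ⁅N, N⁆ →
    ∀ z ∈ S, (∀ n ∈ N, n * z = z * n) → z = 1

/-- Package A3 (coprime action).  `K` normalizes `H`, coprime orders, `H ⊔ K` solvable, `P ≤ H` a
`K`-invariant `p`-subgroup: some `K`-invariant Sylow `p`-subgroup of `H` contains `P`. -/
def LemInvSylow : Prop :=
  ∀ {G : Type u} [Group G] [Finite G] {p : ℕ} [Fact p.Prime] (H K P : Subgroup G),
    K ≤ Subgroup.normalizer (H : Set G) → (Nat.card H).Coprime (Nat.card K) → ¬ p ∣ Nat.card K →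
    Group.IsSolvable ↥(H ⊔ K) → IsPGroup p P → P ≤ H → K ≤ Subgroup.normalizer (P : Set G) →
    ∃ S : Subgroup G, IsSylowIn p S H ∧ P ≤ S ∧ K ≤ Subgroup.normalizer (S : Set G)

/-- Package D.  `M = M_σ · M' · K` for a nontrivial Hall `κ(M)`-subgroup `K`. -/
def LemDecomp : Prop :=
  ∀ {G : Type u} [Group G] [Finite G] (hG : Cfsg.IsMinSimpleOddOrder G)
    (_h1350 : type_of% (@Cfsg.CfsgFrozen.S1350 G _ _ hG))
    (_h1430 : type_of% (@Cfsg.CfsgFrozen.S1430 G _ _ hG))
    (M : Subgroup G) (_hM : IsCoatom M) (K : Subgroup G)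
    (_hK : Cfsg.IsPiHallOf (Cfsg.kappa M) K M) (_hK1 : K ≠ ⊥),
    M ≤ Cfsg.sigmaCore M ⊔ (⁅M, M⁆ ⊔ K)

/-- Package E = clause (e) of S1431. -/
def LemE : Prop :=
  ∀ {G : Type u} [Group G] [Finite G] (hG : Cfsg.IsMinSimpleOddOrder G)
    (_h1430 : type_of% (@Cfsg.CfsgFrozen.S1430 G _ _ hG))
    (M : Subgroup G) (_hM : IsCoatom M) (K : Subgroup G)
    (_hK : Cfsg.IsPiHallOf (Cfsg.kappa M) K M) (_hK1 : K ≠ ⊥),
    ∀ g ∈ M, g ∉ K ⊔ (Cfsg.sigmaCore M ⊓ Subgroup.centralizer (K : Set G)) →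
      K ⊓ K.map (MulAut.conj g).toMonoidHom = ⊥

/-- Package Star.  Given the uniqueness clause (f1), `C_G(x) ≤ M` for `x ∈ K*` of prime order. -/
def LemStar : Prop :=
  ∀ {G : Type u} [Group G] [Finite G] (hG : Cfsg.IsMinSimpleOddOrder G)
    (_h1350 : type_of% (@Cfsg.CfsgFrozen.S1350 G _ _ hG))
    (_h1404 : type_of% (@Cfsg.CfsgFrozen.S1404 G _ _ hG))
    (_h1405 : type_of% (@Cfsg.CfsgFrozen.S1405 G _ _ hG))
    (_h1417 : type_of% (@Cfsg.CfsgFrozen.S1417 G _ _ hG))
    (_h1420 : type_of% (@Cfsg.CfsgFrozen.S1420 G _ _ hG))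
    (_h1424 : type_of% (@Cfsg.CfsgFrozen.S1424 G _ _ hG))
    (_h1430 : type_of% (@Cfsg.CfsgFrozen.S1430 G _ _ hG))
    (M : Subgroup G) (_hM : IsCoatom M) (K : Subgroup G)
    (_hK : Cfsg.IsPiHallOf (Cfsg.kappa M) K M) (_hK1 : K ≠ ⊥)
    (_hF1 : ∀ p : ℕ, p.Prime →
      p ∣ Nat.card ↥(Cfsg.sigmaCore M ⊓ Subgroup.centralizer (K : Set G)) →
      ∀ S : Subgroup G, IsSylowIn p S (Cfsg.sigmaCore M) → Cfsg.InUniqueMaximal S)
    (x : G), x ∈ Cfsg.sigmaCore M ⊓ Subgroup.centralizer (K : Set G) → (orderOf x).Prime →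
    Subgroup.centralizer ({x} : Set G) ≤ M

end Cfsg.Agent.Lib.Helper24.BG31
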