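import Mathlib
import Cfsg.Prelude.Def_OddOrderLocal
import Cfsg.Agent.Lib.Helper46.Amalgam
import Cfsg.Agent.Lib.Helper46.Amalgam2
import Cfsg.Agent.Lib.Helper35.BG.Basic
import Cfsg.Agent.Lib.Helper35.BG.Hall
import Cfsg.Agent.Lib.Helper67.BG.Basics

/-!
# S1431: small utilities about `IsSylowIn` and `M_σ`
-/

set_option autoImplicit false

namespace Cfsg.Agent.Lib.Helper24.BG31

open Cfsg Cfsg.Agent.Lib.Helper46 Cfsg.Agent.Lib.Helper35.BG Cfsg.Agent.Lib.Helper67.BG

universe u

variable {G : Type u} [Group G]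

/-- A Sylow `p`-subgroup has index prime to `p`. -/
theorem sylIn_not_dvd_relIndex [Finite G] {p : ℕ} [Fact p.Prime] {S N : Subgroup G}
    (h : IsSylowIn p S N) : ¬ p ∣ S.relIndex N := by
  have hp : p.Prime := Fact.out
  intro hdvd
  have h1 := card_mul_relIndex' h.1
  have h2 : p ^ ((Nat.card N).factorization p + 1) ∣ Nat.card N := by
    calc p ^ ((Nat.card N).factorization p + 1)
        = p ^ (Nat.card N).factorization p * p := pow_succ _ _
      _ = Nat.card S * p := by rw [h.2]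
      _ ∣ Nat.card S * S.relIndex N := Nat.mul_dvd_mul_left _ hdvd
      _ = Nat.card N := h1
  exact Nat.pow_succ_factorization_not_dvd Nat.card_pos.ne' hp h2

theorem sylIn_coprime_relIndex [Finite G] {p : ℕ} [Fact p.Prime] {S N : Subgroup G}
    (h : IsSylowIn p S N) : (Nat.card S).Coprime (S.relIndex N) := by
  have hp : p.Prime := Fact.out
  rw [h.2]
  exact Nat.Coprime.pow_left _ ((Nat.Prime.coprime_iff_not_dvd hp).mpr (sylIn_not_dvd_relIndex h))

/-- A `p`-subgroup of index prime to `p` is a Sylow `p`-subgroup. -/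
theorem sylIn_of_not_dvd_relIndex [Finite G] {p : ℕ} [Fact p.Prime] {S N : Subgroup G}
    (hSN : S ≤ N) (hS : IsPGroup p S) (h : ¬ p ∣ S.relIndex N) : IsSylowIn p S N := by
  have hp : p.Prime := Fact.out
  obtain ⟨k, hk⟩ := hS.exists_card_eq
  refine ⟨hSN, ?_⟩
  have h1 := card_mul_relIndex' hSN
  have h0 : S.relIndex N ≠ 0 := by
    intro h0
    rw [h0, mul_zero] at h1
    exact Nat.card_pos.ne' h1.symm
  rw [← h1, hk, Nat.factorization_mul (pow_ne_zero _ hp.ne_zero) h0]
  simp [hp.factorization_pow, Nat.factorization_eq_zero_of_not_dvd h]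

/-- A Sylow subgroup of the whole group, as a `Sylow`. -/
theorem exists_sylow_of_sylIn_top [Finite G] {p : ℕ} [Fact p.Prime] {S : Subgroup G}
    (h : IsSylowIn p S ⊤) : ∃ P : Sylow p G, (P : Subgroup G) = S := by
  have hc : Nat.card S = p ^ (Nat.card G).factorization p := by
    rw [h.2, Subgroup.card_top]
  exact ⟨Sylow.ofCard S hc, Sylow.coe_ofCard S hc⟩

theorem factorization_sigmaCore_eq [Finite G] {M : Subgroup G}
    (hHall : IsPiHallOf (sigma M) (sigmaCore M) M) {p : ℕ} (hp : p ∈ sigma M) :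
    (Nat.card (sigmaCore M)).factorization p = (Nat.card M).factorization p := by
  have h1 := card_mul_relIndex' hHall.1
  have h2 : ¬ p ∣ (sigmaCore M).relIndex M := hHall.2.2 p hp.1 hp
  have h0 : (sigmaCore M).relIndex M ≠ 0 := by
    intro h0
    rw [h0, mul_zero] at h1
    exact Nat.card_pos.ne' h1.symm
  rw [← h1, Nat.factorization_mul Nat.card_pos.ne' h0]
  simp [Nat.factorization_eq_zero_of_not_dvd h2]

/-- For `p ∈ σ(M)`, a Sylow `p`-subgroup of `M_σ` is a Sylow `p`-subgroup of `M`. -/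
theorem sylIn_M_of_sylIn_sigmaCore [Finite G] {M : Subgroup G}
    (hHall : IsPiHallOf (sigma M) (sigmaCore M) M) {p : ℕ} (hp : p ∈ sigma M) {S : Subgroup G}
    (hS : IsSylowIn p S (sigmaCore M)) : IsSylowIn p S M :=
  ⟨hS.1.trans hHall.1, by rw [hS.2, factorization_sigmaCore_eq hHall hp]⟩

/-- For `p ∈ σ(M)`, a Sylow `p`-subgroup of `M` is a Sylow `p`-subgroup of `M_σ`. -/
theorem sylIn_sigmaCore_of_sylIn_M [Finite G] {M : Subgroup G}
    (hHall : IsPiHallOf (sigma M) (sigmaCore M) M) {p : ℕ} [Fact p.Prime] (hp : p ∈ sigma M)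
    {S : Subgroup G} (hS : IsSylowIn p S M) : IsSylowIn p S (sigmaCore M) := by
  obtain ⟨Q, hQ, -⟩ := exists_isSylowIn_ge (p := p) (Q := ⊥) (H := sigmaCore M)
    IsPGroup.of_bot bot_le
  have hQM := sylIn_M_of_sylIn_sigmaCore hHall hp hQ
  obtain ⟨m, hm, rfl⟩ := hQM.exists_conj hS
  refine ⟨?_, by rw [hS.2, factorization_sigmaCore_eq hHall hp]⟩
  have h1 : (sigmaCore M).map (MulAut.conj m).toMonoidHom = sigmaCore M :=
    map_conj_eq_of_mem_normalizer (sigmaCore_normalizer M hm)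
  rw [← h1]
  exact Subgroup.map_mono hQ.1

/-- A prime dividing the order of an element of `M_σ`-type subgroup lies in `σ(M)`. -/
theorem mem_sigma_of_mem_sigmaCore [Finite G] {M : Subgroup G} {x : G} (hx : x ∈ sigmaCore M)
    {p : ℕ} (hp : p.Prime) (hxo : orderOf x = p) : p ∈ sigma M := by
  apply sigmaCore_isPi M p hp
  rw [← hxo]
  exact Subgroup.orderOf_dvd_natCard _ hx

end Cfsg.Agent.Lib.Helper24.BG31
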