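import Mathlib
import Cfsg.Agent.Lib.Helper24.BG.S1431Defs
import Cfsg.Agent.Lib.Helper24.BG.S1431Util
import Cfsg.Statements.S1403
import Cfsg.Statements.S1411
import Cfsg.Statements.S1422
import Cfsg.Statements.S1423
import Cfsg.Agent.Lib.Helper35.BG.Compl
import Cfsg.Agent.Lib.Helper61.BG9a
import Cfsg.Agent.Lib.Helper78.BG.S1418Core

/-!
# S1431, clause (f1): for `p ∣ |K*|` every Sylow `p`-subgroup of `M_σ` lies in a unique maximal
subgroup.  The three pure group theory packages and the decomposition package are hypotheses here.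
-/

set_option autoImplicit false

namespace Cfsg.Agent.Lib.Helper24.BG31

open Cfsg Cfsg.Agent.Lib.Helper46 Cfsg.Agent.Lib.Helper35.BG Cfsg.Agent.Lib.Helper67.BG
open scoped Pointwise commutatorElement

universe u

variable {G : Type u} [Group G]

theorem exists_mul_of_mem_sup_norm {A T : Subgroup G}
    (hn : T ≤ Subgroup.normalizer (A : Set G)) {x : G} (hx : x ∈ A ⊔ T) :
    ∃ a ∈ A, ∃ t ∈ T, x = a * t := by
  have h1 : x ∈ ((A ⊔ T : Subgroup G) : Set G) := hx
  rw [Subgroup.coe_mul_of_right_le_normalizer_left A T hn] at h1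
  obtain ⟨a, ha, b, hb, rfl⟩ := Set.mem_mul.mp h1
  exact ⟨a, ha, b, hb, rfl⟩

/-- The abelian case of rank at most 2: the `K`-invariant Sylow subgroup meets `[M_σ, M_σ]`. -/
theorem inf_commutator_sigmaCore_ne_bot [Finite G]
    (hA1 : LemRankTwo.{u}) (hA2 : LemTransfer.{u}) (hD : LemDecomp.{u})
    (hG : Cfsg.IsMinSimpleOddOrder G)
    (h1350 : type_of% (@Cfsg.CfsgFrozen.S1350 G _ _ hG))
    (h1411 : type_of% (@Cfsg.CfsgFrozen.S1411 G _ _ hG))
    (h1430 : type_of% (@Cfsg.CfsgFrozen.S1430 G _ _ hG))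
    (M : Subgroup G) (hM : IsCoatom M) (K : Subgroup G)
    (hK : Cfsg.IsPiHallOf (Cfsg.kappa M) K M) (hK1 : K ≠ ⊥)
    (p : ℕ) [Fact p.Prime] (hpσ : p ∈ sigma M) (S : Subgroup G)
    (hS : IsSylowIn p S (sigmaCore M))
    (hKS : K ≤ Subgroup.normalizer (S : Set G)) (x : G) (hxS : x ∈ S) (hx1 : x ≠ 1)
    (hxK : x ∈ Subgroup.centralizer (K : Set G))
    (hab : IsMulCommutative S) (hr : PRankLE p 2 S) :
    S ⊓ ⁅sigmaCore M, sigmaCore M⁆ ≠ ⊥ := by
  intro hbot
  have hpp : p.Prime := Fact.out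
  obtain ⟨hHall, -, -⟩ := h1350 M hM
  have hSM : IsSylowIn p S M := sylIn_M_of_sylIn_sigmaCore hHall hpσ hS
  have hStop : IsSylowIn p S ⊤ := isSylowIn_top_of_sigma hpσ hSM
  have hNM : Subgroup.normalizer (S : Set G) ≤ M := normalizer_le_of_sigma hpσ hSM
  obtain ⟨N, hN⟩ : ∃ N : Subgroup G, N = Subgroup.normalizer (S : Set G) := ⟨_, rfl⟩
  rw [← hN] at hNM hKS
  have hSleN : S ≤ N := by rw [hN]; exact Subgroup.le_normalizer
  have hNnorm : N ≤ Subgroup.normalizer (S : Set G) := hN.le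
  have hSN : IsSylowIn p S N := hSM.of_le hSleN hNM
  have hNtop : N ≠ ⊤ := by
    intro h
    rw [h] at hNM
    exact hM.1 (top_le_iff.mp hNM)
  have hNsol : Group.IsSolvable N := isSolvable_of_ne_top hG hNtop
  have hNodd : Odd (Nat.card N) := odd_card_subgroup hG N
  have hp2 : p ≠ 2 := by
    rintro rfl
    have h1 : 2 ∣ Nat.card M := hpσ.2.1
    have h2 : Odd (Nat.card M) := odd_card_subgroup hG M
    exact (Nat.not_even_iff_odd.mpr h2) (even_iff_two_dvd.mpr h1)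
  -- (a) the derived subgroup of `N` centralizes `S`
  have ha : ⁅N, N⁆ ≤ Subgroup.centralizer (S : Set G) :=
    hA1 hp2 S N hSN hNnorm hNsol hNodd hab hr
  -- (b) `N ∩ M_σ` centralizes `S`
  have hb : N ⊓ sigmaCore M ≤ Subgroup.centralizer (S : Set G) := by
    intro n hn
    rw [Subgroup.mem_centralizer_iff]
    intro s hs
    have h1 : n * s * n⁻¹ * s⁻¹ ∈ S ⊓ ⁅sigmaCore M, sigmaCore M⁆ := by
      refine Subgroup.mem_inf.mpr ⟨?_, ?_⟩
      · exact S.mul_mem ((Subgroup.mem_normalizer_iff.mp (hNnorm hn.1) s).mp hs) (S.inv_mem hs)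
      · exact Subgroup.commutator_mem_commutator hn.2 (hS.1 hs)
    rw [hbot, Subgroup.mem_bot] at h1
    have h2 : n * s * n⁻¹ = s := mul_inv_eq_one.mp h1
    calc s * n = (n * s * n⁻¹) * n := by rw [h2]
      _ = n * s := by group
  -- (c) Frattini
  have hc : ∀ m ∈ M, ∃ s ∈ sigmaCore M, ∃ n ∈ N, m = s * n := by
    intro m hm
    have h1 : IsSylowIn p (S.map (MulAut.conj m).toMonoidHom) (sigmaCore M) := by
      have h2 := sylIn_map_conj hS m
      rwa [map_conj_eq_of_mem_normalizer (sigmaCore_normalizer M hm)] at h2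
    obtain ⟨s, hs, hs2⟩ := hS.exists_conj h1
    refine ⟨s, hs, s⁻¹ * m, ?_, by group⟩
    rw [hN]
    apply mem_normalizer_of_map_conj_eq
    rw [← Cfsg.Agent.Lib.Helper35.BG.map_conj_mul, hs2, Cfsg.Agent.Lib.Helper35.BG.map_conj_mul,
      inv_mul_cancel, Cfsg.Agent.Lib.Helper35.BG.map_conj_one]
  -- (d) `M' ≤ M_σ N'`
  have hσn : ∀ n ∈ N, ∀ s ∈ sigmaCore M, n * s * n⁻¹ ∈ sigmaCore M := fun n hn s hs =>
    Cfsg.Agent.Lib.Helper78.BG.conj_mem_sigmaCore M (hNM hn) hs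
  have hd : ⁅M, M⁆ ≤ sigmaCore M ⊔ ⁅N, N⁆ := by
    rw [Subgroup.commutator_le]
    intro a ha' b hb'
    obtain ⟨s₁, hs₁, n₁, hn₁, rfl⟩ := hc a ha'
    obtain ⟨s₂, hs₂, n₂, hn₂, rfl⟩ := hc b hb'
    have e : ⁅s₁ * n₁, s₂ * n₂⁆ = (s₁ * (n₁ * s₂ * n₁⁻¹)) * ⁅n₁, n₂⁆ *
        ((n₂ * s₁⁻¹ * n₂⁻¹) * s₂⁻¹) := by
      rw [commutatorElement_def, commutatorElement_def]; group
    rw [e]
    refine Subgroup.mul_mem _ (Subgroup.mul_mem _ (Subgroup.mem_sup_left ?_)
      (Subgroup.mem_sup_right ?_)) (Subgroup.mem_sup_left ?_)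
    · exact (sigmaCore M).mul_mem hs₁ (hσn n₁ hn₁ s₂ hs₂)
    · exact Subgroup.commutator_mem_commutator hn₁ hn₂
    · exact (sigmaCore M).mul_mem (hσn n₂ hn₂ _ ((sigmaCore M).inv_mem hs₁))
        ((sigmaCore M).inv_mem hs₂)
  -- (f) `M = M_σ M' K`
  have hf : M ≤ sigmaCore M ⊔ (⁅M, M⁆ ⊔ K) := hD hG h1350 h1430 M hM K hK hK1
  -- (g) every element of `N` commutes with `x`
  have hcomN : ⁅N, N⁆ ≤ N := by
    rw [Subgroup.commutator_le]
    intro a ha' b hb'
    rw [commutatorElement_def]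
    exact N.mul_mem (N.mul_mem (N.mul_mem ha' hb') (N.inv_mem ha')) (N.inv_mem hb')
  have hEN : ⁅N, N⁆ ⊔ K ≤ N := sup_le hcomN hKS
  have hxS' : ∀ c ∈ Subgroup.centralizer (S : Set G), c * x = x * c := fun c hc' =>
    (Subgroup.mem_centralizer_iff.mp hc' x hxS).symm
  have hg : ∀ n ∈ N, n * x = x * n := by
    intro n hn
    have h1 : n ∈ sigmaCore M ⊔ (⁅N, N⁆ ⊔ K) := by
      have h2 : sigmaCore M ⊔ (⁅M, M⁆ ⊔ K) ≤ sigmaCore M ⊔ (⁅N, N⁆ ⊔ K) := by
        refine sup_le le_sup_left (sup_le ?_ (le_sup_right.trans le_sup_right))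
        exact hd.trans (sup_le_sup_left le_sup_left _)
      exact h2 (hf (hNM hn))
    have hnorm : ⁅N, N⁆ ⊔ K ≤ Subgroup.normalizer (sigmaCore M : Set G) :=
      (hEN.trans hNM).trans (sigmaCore_normalizer M)
    obtain ⟨s, hs, e, he, rfl⟩ :=
      exists_mul_of_mem_sup_norm hnorm h1
    have hsN : s ∈ N := by
      have h3 : s = (s * e) * e⁻¹ := by group
      rw [h3]
      exact N.mul_mem hn (N.inv_mem (hEN he))
    have hsx : s * x = x * s := hxS' s (hb (Subgroup.mem_inf.mpr ⟨hsN, hs⟩))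
    have hex : e * x = x * e := by
      have h4 : ⁅N, N⁆ ⊔ K ≤ Subgroup.centralizer ({x} : Set G) := by
        refine sup_le ?_ ?_
        · intro c hc'
          rw [Subgroup.mem_centralizer_iff]
          intro y hy
          rw [Set.mem_singleton_iff] at hy
          rw [hy]
          exact (hxS' c (ha hc')).symm
        · intro k hk
          rw [Subgroup.mem_centralizer_iff]
          intro y hy
          rw [Set.mem_singleton_iff] at hy
          rw [hy]
          exact (Subgroup.mem_centralizer_iff.mp hxK k hk).symm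
      exact (Subgroup.mem_centralizer_iff.mp (h4 he) x rfl).symm
    calc s * e * x = s * (e * x) := by group
      _ = s * (x * e) := by rw [hex]
      _ = (s * x) * e := by group
      _ = (x * s) * e := by rw [hsx]
      _ = x * (s * e) := by group
  -- (h) `S ≤ N'` by S1411
  obtain ⟨P, hP⟩ := exists_sylow_of_sylIn_top hStop
  have hcop : (Nat.card S).Coprime (S.relIndex N) := sylIn_coprime_relIndex hSN
  obtain ⟨V, hV⟩ := exists_isComplIn_of_coprime hSleN hNnorm hcop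
  have h11 := (h1411 p P V (by rw [hP, ← hN]; exact hV)).2
  rw [hP, ← hN] at h11
  -- (i) transfer
  exact hx1 (hA2 S N hSN hab h11 x hxS hg)

/-- Clause (f1): for `p ∣ |K*|` every Sylow `p`-subgroup of `M_σ` lies in a unique maximal
subgroup. -/
theorem f1_core [Finite G]
    (hA1 : LemRankTwo.{u}) (hA2 : LemTransfer.{u}) (hA3 : LemInvSylow.{u}) (hD : LemDecomp.{u})
    (hG : Cfsg.IsMinSimpleOddOrder G)
    (h1350 : type_of% (@Cfsg.CfsgFrozen.S1350 G _ _ hG))
    (h1403 : type_of% (@Cfsg.CfsgFrozen.S1403 G _ _ hG))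
    (h1411 : type_of% (@Cfsg.CfsgFrozen.S1411 G _ _ hG))
    (h1422 : type_of% (@Cfsg.CfsgFrozen.S1422 G _ _ hG))
    (h1423 : type_of% (@Cfsg.CfsgFrozen.S1423 G _ _ hG))
    (h1430 : type_of% (@Cfsg.CfsgFrozen.S1430 G _ _ hG))
    (M : Subgroup G) (hM : IsCoatom M) (K : Subgroup G)
    (hK : Cfsg.IsPiHallOf (Cfsg.kappa M) K M) (hK1 : K ≠ ⊥) :
    ∀ p : ℕ, p.Prime →
      p ∣ Nat.card ↥(Cfsg.sigmaCore M ⊓ Subgroup.centralizer (K : Set G)) →
      ∀ S : Subgroup G, IsSylowIn p S (Cfsg.sigmaCore M) → Cfsg.InUniqueMaximal S := by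
  intro p hpp hpdvd S hS
  have : Fact p.Prime := ⟨hpp⟩
  obtain ⟨hHall, -, -⟩ := h1350 M hM
  have hpσ : p ∈ sigma M :=
    sigmaCore_isPi M p hpp (hpdvd.trans (Subgroup.card_dvd_of_le inf_le_left))
  obtain ⟨x', hx'⟩ := exists_prime_orderOf_dvd_card' p hpdvd
  obtain ⟨x, hx⟩ : ∃ x : G, x = (x' : G) := ⟨_, rfl⟩
  have hxo : orderOf x = p := by rw [hx, Subgroup.orderOf_coe]; exact hx'
  have hxmem : x ∈ sigmaCore M ⊓ Subgroup.centralizer (K : Set G) := by rw [hx]; exact x'.2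
  have hxσ : x ∈ sigmaCore M := (Subgroup.mem_inf.mp hxmem).1
  have hxK : x ∈ Subgroup.centralizer (K : Set G) := (Subgroup.mem_inf.mp hxmem).2
  have hx1 : x ≠ 1 := by
    intro h
    rw [h, orderOf_one] at hxo
    exact hpp.one_lt.ne hxo
  have hPp : IsPGroup p (Subgroup.zpowers x) :=
    IsPGroup.of_card (n := 1) (by rw [Nat.card_zpowers, hxo, pow_one])
  have hPσ : Subgroup.zpowers x ≤ sigmaCore M := (Subgroup.zpowers_le).mpr hxσ
  have hKP : K ≤ Subgroup.normalizer ((Subgroup.zpowers x : Subgroup G) : Set G) := by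
    intro k hk
    apply centralizer_le_normalizer'
    rw [Subgroup.mem_centralizer_iff]
    intro y hy
    obtain ⟨n, rfl⟩ := Subgroup.mem_zpowers_iff.mp hy
    have h1 : Commute k x := Subgroup.mem_centralizer_iff.mp hxK k hk
    exact ((h1.zpow_right n).eq).symm
  have hcop : (Nat.card (sigmaCore M)).Coprime (Nat.card K) := by
    by_contra h
    obtain ⟨q, hq, h1, h2⟩ := Nat.Prime.not_coprime_iff_dvd.mp h
    exact (hK.2.1 q hq h2).2.2.1 (sigmaCore_isPi M q hq h1)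
  have hpK : ¬ p ∣ Nat.card K := fun h => (hK.2.1 p hpp h).2.2.1 hpσ
  have hsolHK : Group.IsSolvable ↥(sigmaCore M ⊔ K) := by
    apply isSolvable_of_ne_top hG
    intro h
    have h1 : sigmaCore M ⊔ K ≤ M := sup_le (sigmaCore_le M) hK.1
    rw [h] at h1
    exact hM.1 (top_le_iff.mp h1)
  obtain ⟨S₁, hS₁, hxS₁, hKS₁⟩ := hA3 (sigmaCore M) K (Subgroup.zpowers x)
    (hK.1.trans (sigmaCore_normalizer M)) hcop hpK hsolHK hPp hPσ hKP
  have key : InUniqueMaximal S₁ := by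
    have hS₁p : IsPGroup p S₁ := sylIn_isPGroup hS₁
    by_cases hr : PRankLE p 2 S₁
    · by_cases hab : IsMulCommutative S₁
      · have hne := inf_commutator_sigmaCore_ne_bot hA1 hA2 hD hG h1350 h1411 h1430 M hM K hK hK1
          p hpσ S₁ hS₁ hKS₁ x (hxS₁ (Subgroup.mem_zpowers x)) hx1 hxK hab hr
        have hHp : IsPGroup p ↥(S₁ ⊓ ⁅sigmaCore M, sigmaCore M⁆) := hS₁p.to_le inf_le_left
        have hdvd := dvd_card_of_isPGroup_ne_bot hHp hne
        obtain ⟨y', hy'⟩ := exists_prime_orderOf_dvd_card' p hdvd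
        have hyo : orderOf (y' : G) = p := by rw [Subgroup.orderOf_coe]; exact hy'
        have hymem : (y' : G) ∈ S₁ ⊓ ⁅sigmaCore M, sigmaCore M⁆ := y'.2
        obtain ⟨P, hP⟩ := hS₁.exists_sylow
        have hyM : (y' : G) ∈ M := sigmaCore_le M (hS₁.1 (Subgroup.mem_inf.mp hymem).1)
        have h23 := h1423 M hM p hpσ (Subgroup.zpowers (y' : G)) ((Subgroup.zpowers_le).mpr hyM)
          (by rw [Nat.card_zpowers, hyo]) P
          (Or.inr ((Subgroup.zpowers_le).mpr (Subgroup.mem_inf.mp hymem).2))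
        rw [hP] at h23
        exact h23.2.1
      · exact h1422 p S₁ hS₁p hab
    · have hS₁top : S₁ ≠ ⊤ := by
        intro h
        have h1 : S₁ ≤ M := hS₁.1.trans (sigmaCore_le M)
        rw [h] at h1
        exact hM.1 (top_le_iff.mp h1)
      exact h1403 S₁ hS₁top
        (not_rankLE_of_not_pRankLE (fun h1 => hr (pRankLE_mono hpp.pos (by norm_num) h1)))
        (Or.inl (not_rankLE_of_not_pRankLE hr))
  obtain ⟨m, hm, rfl⟩ := hS₁.exists_conj hS
  exact Cfsg.Agent.Lib.Helper61.bg_unique_mapConj key m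

end Cfsg.Agent.Lib.Helper24.BG31
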