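import Mathlib
import Cfsg.Agent.Lib.Helper24.BG.S1431F1
import Cfsg.Statements.S1425

/-!
# S1431 (Bender–Glauberman Theorem 14.2 (d)–(g)): assembly from the packages
-/

set_option autoImplicit false

namespace Cfsg.Agent.Lib.Helper24.BG31

open Cfsg Cfsg.Agent.Lib.Helper46 Cfsg.Agent.Lib.Helper35.BG Cfsg.Agent.Lib.Helper67.BG

universe u

variable {G : Type u} [Group G]

theorem exists_prime_order_of_ne_bot [Finite G] {H : Subgroup G} (h : H ≠ ⊥) :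
    ∃ x ∈ H, (orderOf x).Prime := by
  have h1 : Nat.card H ≠ 1 := fun h1 => h (Subgroup.card_eq_one.mp h1)
  obtain ⟨q, hq, hdvd⟩ := Nat.exists_prime_and_dvd h1
  have : Fact q.Prime := ⟨hq⟩
  obtain ⟨x, hx⟩ := exists_prime_orderOf_dvd_card' q hdvd
  exact ⟨x, x.2, by rw [Subgroup.orderOf_coe, hx]; exact hq⟩

theorem centralizer_zpowers_le (x : G) :
    Subgroup.centralizer ((Subgroup.zpowers x : Subgroup G) : Set G) ≤
      Subgroup.centralizer ({x} : Set G) := by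
  apply Subgroup.centralizer_le
  intro y hy
  rw [Set.mem_singleton_iff] at hy
  rw [hy]
  exact Subgroup.mem_zpowers x

/-- S1431 from the six packages and the earlier statements. -/
theorem s1431_asm [Finite G]
    (hA1 : LemRankTwo.{u}) (hA2 : LemTransfer.{u}) (hA3 : LemInvSylow.{u}) (hD : LemDecomp.{u})
    (hE : LemE.{u}) (hStar : LemStar.{u})
    (hG : Cfsg.IsMinSimpleOddOrder G)
    (h1350 : type_of% (@Cfsg.CfsgFrozen.S1350 G _ _ hG))
    (h1403 : type_of% (@Cfsg.CfsgFrozen.S1403 G _ _ hG))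
    (h1404 : type_of% (@Cfsg.CfsgFrozen.S1404 G _ _ hG))
    (h1405 : type_of% (@Cfsg.CfsgFrozen.S1405 G _ _ hG))
    (h1411 : type_of% (@Cfsg.CfsgFrozen.S1411 G _ _ hG))
    (h1417 : type_of% (@Cfsg.CfsgFrozen.S1417 G _ _ hG))
    (h1420 : type_of% (@Cfsg.CfsgFrozen.S1420 G _ _ hG))
    (h1422 : type_of% (@Cfsg.CfsgFrozen.S1422 G _ _ hG))
    (h1423 : type_of% (@Cfsg.CfsgFrozen.S1423 G _ _ hG))
    (h1424 : type_of% (@Cfsg.CfsgFrozen.S1424 G _ _ hG))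
    (h1425 : type_of% (@Cfsg.CfsgFrozen.S1425 G _ _ hG))
    (h1430 : type_of% (@Cfsg.CfsgFrozen.S1430 G _ _ hG))
    (M : Subgroup G) (hM : IsCoatom M) (K : Subgroup G)
    (hK : Cfsg.IsPiHallOf (Cfsg.kappa M) K M) (hK1 : K ≠ ⊥) :
    (∀ g : G, g ∉ M → (Cfsg.sigmaCore M ⊓ Subgroup.centralizer (K : Set G)) ⊓ M.map (MulAut.conj g).toMonoidHom = ⊥) ∧
      (∀ g ∈ M, g ∉ K ⊔ (Cfsg.sigmaCore M ⊓ Subgroup.centralizer (K : Set G)) → K ⊓ K.map (MulAut.conj g).toMonoidHom = ⊥) ∧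
      (∀ (p : ℕ), p.Prime → p ∣ Nat.card ↥(Cfsg.sigmaCore M ⊓ Subgroup.centralizer (K : Set G)) → ∀ S : Sylow p ↥(Cfsg.sigmaCore M),
        Cfsg.InUniqueMaximal ((S : Subgroup ↥(Cfsg.sigmaCore M)).map (Cfsg.sigmaCore M).subtype) ∧
        (S : Subgroup ↥(Cfsg.sigmaCore M)).map (Cfsg.sigmaCore M).subtype ≤ M ∧
        ¬ (S : Subgroup ↥(Cfsg.sigmaCore M)).map (Cfsg.sigmaCore M).subtype ≤ (Cfsg.sigmaCore M ⊓ Subgroup.centralizer (K : Set G))) ∧
      ∀ Y : Subgroup G, (∀ p : ℕ, p.Prime → p ∣ Nat.card Y → p ∈ Cfsg.sigma M) → Y ⊓ (Cfsg.sigmaCore M ⊓ Subgroup.centralizer (K : Set G)) ≠ ⊥ → Y ≤ Cfsg.sigmaCore M := by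
  have hF1 := f1_core hA1 hA2 hA3 hD hG h1350 h1403 h1411 h1422 h1423 h1430 M hM K hK hK1
  have hstar : ∀ x : G, x ∈ Cfsg.sigmaCore M ⊓ Subgroup.centralizer (K : Set G) →
      (orderOf x).Prime → Subgroup.centralizer ({x} : Set G) ≤ M :=
    hStar hG h1350 h1404 h1405 h1417 h1420 h1424 h1430 M hM K hK hK1 hF1
  -- the fusion argument: a conjugate of `x ∈ K*` (prime order) inside `M` is conjugate by `M`
  have hfus : ∀ x : G, x ∈ Cfsg.sigmaCore M ⊓ Subgroup.centralizer (K : Set G) →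
      (orderOf x).Prime → ∀ g : G, g * x * g⁻¹ ∈ M → g ∈ M := by
    intro x hx hxo g hgx
    have : Fact (orderOf x).Prime := ⟨hxo⟩
    have hxσ : x ∈ sigmaCore M := (Subgroup.mem_inf.mp hx).1
    have hpσ : orderOf x ∈ sigma M := mem_sigma_of_mem_sigmaCore hxσ hxo rfl
    have hx1 : x ≠ 1 := by
      intro h
      rw [h, orderOf_one] at hxo
      exact Nat.not_prime_one hxo
    have hXp : IsPGroup (orderOf x) (Subgroup.zpowers x) :=
      IsPGroup.of_card (n := 1) (by rw [Nat.card_zpowers, pow_one])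
    have hX1 : Subgroup.zpowers x ≠ ⊥ := by
      intro h
      have h1 : x ∈ (⊥ : Subgroup G) := by rw [← h]; exact Subgroup.mem_zpowers x
      exact hx1 (Subgroup.mem_bot.mp h1)
    have hXM : Subgroup.zpowers x ≤ M := (Subgroup.zpowers_le).mpr (sigmaCore_le M hxσ)
    obtain ⟨h4, -⟩ := h1404 M hM (orderOf x) hpσ (Subgroup.zpowers x) hXp hX1 hXM
    have hconj : (Subgroup.zpowers x).map (MulAut.conj g).toMonoidHom ≤ M := by
      rw [MonoidHom.map_zpowers, Subgroup.zpowers_le]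
      exact hgx
    obtain ⟨m, hm, c, hc, rfl⟩ := h4 g hconj
    exact M.mul_mem hm (hstar x hx hxo (centralizer_zpowers_le x hc))
  refine ⟨?_, hE hG h1430 M hM K hK hK1, ?_, ?_⟩
  · -- (d)
    intro g hg
    by_contra hne
    obtain ⟨x, hx, hxo⟩ := exists_prime_order_of_ne_bot hne
    obtain ⟨hxKs, hxg⟩ := Subgroup.mem_inf.mp hx
    rw [mem_map_conj_iff] at hxg
    have h1 : g⁻¹ ∈ M := hfus x hxKs hxo g⁻¹ (by rw [inv_inv]; exact hxg)
    exact hg (by simpa using M.inv_mem h1)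
  · -- (f)
    intro p hp hpdvd S
    have : Fact p.Prime := ⟨hp⟩
    have hS' : IsSylowIn p ((S : Subgroup ↥(Cfsg.sigmaCore M)).map (Cfsg.sigmaCore M).subtype)
        (Cfsg.sigmaCore M) := isSylowIn_of_sylow S
    have hIU := hF1 p hp hpdvd _ hS'
    have hSM : (S : Subgroup ↥(Cfsg.sigmaCore M)).map (Cfsg.sigmaCore M).subtype ≤ M :=
      hS'.1.trans (sigmaCore_le M)
    refine ⟨hIU, hSM, ?_⟩
    intro hle
    obtain ⟨k₀, hk₀, hk₀o⟩ := exists_prime_order_of_ne_bot hK1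
    have hk₀1 : k₀ ≠ 1 := by
      intro h
      rw [h, orderOf_one] at hk₀o
      exact Nat.not_prime_one hk₀o
    have hX₀K : Subgroup.zpowers k₀ ≤ K := (Subgroup.zpowers_le).mpr hk₀
    have hX₀c : (Nat.card (Subgroup.zpowers k₀)).Prime := by rw [Nat.card_zpowers]; exact hk₀o
    obtain ⟨-, -, h3⟩ := (h1430 M hM K hK hK1).2.2 (Subgroup.zpowers k₀) hX₀K hX₀c
    have hX₀1 : Subgroup.zpowers k₀ ≠ ⊥ := by
      intro h
      have h1 : k₀ ∈ (⊥ : Subgroup G) := by rw [← h]; exact Subgroup.mem_zpowers k₀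
      exact hk₀1 (Subgroup.mem_bot.mp h1)
    have hX₀top : Subgroup.zpowers k₀ ≠ ⊤ := by
      intro h
      have h1 : Subgroup.zpowers k₀ ≤ M := hX₀K.trans hK.1
      rw [h] at h1
      exact hM.1 (top_le_iff.mp h1)
    obtain ⟨M₂, hM₂, hNM₂⟩ := exists_coatom_ge (normalizer_ne_top hG hX₀1 hX₀top)
    have hX₀σ := h3 M₂ hM₂ hNM₂
    have hSM₂ : (S : Subgroup ↥(Cfsg.sigmaCore M)).map (Cfsg.sigmaCore M).subtype ≤ M₂ := by
      refine (hle.trans inf_le_right).trans ?_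
      exact ((centralizer_anti hX₀K).trans (centralizer_le_normalizer' _)).trans hNM₂
    have hMM : M₂ = M := Cfsg.Agent.Lib.Helper61.bg_unique_eq hIU hM₂ hSM₂ hM hSM
    rw [hMM] at hX₀σ
    have hrσ : orderOf k₀ ∈ sigma M :=
      mem_sigma_of_mem_sigmaCore (hX₀σ (Subgroup.mem_zpowers k₀)) hk₀o rfl
    exact (hK.2.1 (orderOf k₀) hk₀o (Subgroup.orderOf_dvd_natCard K hk₀)).2.2.1 hrσ
  · -- (g)
    intro Y hY hne
    obtain ⟨x, hx, hxo⟩ := exists_prime_order_of_ne_bot hne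
    obtain ⟨hxY, hxKs⟩ := Subgroup.mem_inf.mp hx
    have hY1 : Y ≠ ⊥ := by
      intro h
      rw [h, bot_inf_eq] at hne
      exact hne rfl
    obtain ⟨g, hg⟩ := h1425 M hM Y hY1 hY
    have h1 : g * x * g⁻¹ ∈ sigmaCore M := hg (conj_mem_map_conj g hxY)
    have hgM : g ∈ M := hfus x hxKs hxo g (sigmaCore_le M h1)
    intro y hy
    have h2 : g * y * g⁻¹ ∈ sigmaCore M := hg (conj_mem_map_conj g hy)
    have h3 := Cfsg.Agent.Lib.Helper78.BG.conj_mem_sigmaCore M (M.inv_mem hgM) h2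
    have h4 : g⁻¹ * (g * y * g⁻¹) * g⁻¹⁻¹ = y := by group
    rw [h4] at h3
    exact h3

end Cfsg.Agent.Lib.Helper24.BG31
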